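import Cfsg.Agent.Lib.Helper74.O720.Defs

set_option autoImplicit false

namespace Cfsg.Agent.Lib.Helper74.O720

variable {G : Type*} [Group G] [Finite G]

theorem K0_le {p : ℕ} [Fact p.Prime] (D : Subgroup G) (hD : IsPGroup p D) (P' : Sylow p G)
    (hP' : (P' : Subgroup G) ≤ Nz D) : D ≤ P' := by
  have h1 : IsPGroup p ((P' : Subgroup G) ⊔ D : Subgroup G) :=
    IsPGroup.to_sup_of_normal_right' P'.2 hD hP'
  have h2 := P'.is_maximal' h1 le_sup_left
  calc D ≤ (P' : Subgroup G) ⊔ D := le_sup_right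
    _ = P' := h2

/-- [K0] -/
theorem eq_of_le_Nz {p : ℕ} [Fact p.Prime] (P P' : Sylow p G)
    (hP' : (P' : Subgroup G) ≤ Nz (P : Subgroup G)) : P' = P :=
  Sylow.ext (P.is_maximal' P'.2 (K0_le (P : Subgroup G) P.2 P' hP'))

end Cfsg.Agent.Lib.Helper74.O720
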